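import Cfsg.Agent.H529.S8.Main
import Cfsg.Agent.H515.S8.Ending3
import Cfsg.Agent.H595.SD.Central3

/-!
# S4908 from the 26 rows (helper529)
-/

set_option autoImplicit false

namespace Cfsg.Agent.H529.S8

open Cfsg Cfsg.Agent.H704.S8

universe u v

/-- **S4908, from the rows.** -/
theorem final (R : Rows.{u, v}) {H₀ : Type v} [Group H₀] [Finite H₀] (hH₀ : Cfsg.IsSporadic H₀)
    (H : Subgroup (MulAut H₀)) (hH : (MulAut.conj : H₀ →* MulAut H₀).range ≤ H) {G : Type u} [Group G] [Finite G]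
    (h : charDegrees G = charDegrees H) :
    Nonempty (commutator G ≃* H₀) ∧ Nonempty (G ⧸ Subgroup.center G ≃* H) :=
  of_rows R (fun hX _ h1 hc R' D hD => H595.SD.noCentral_of hX h1 hc R' D hD)
    (fun hX _ hc ho => H515.S8.ending3 hX hc ho) hH₀ H hH h

end Cfsg.Agent.H529.S8
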